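import Cfsg.Agent.H416.CV.Ev
import Cfsg.Agent.H72.CVA.Elem
import Cfsg.Agent.H934.MF.Diag

/-!
# Matrices over `𝔽_q` with a prescribed Frobenius-stable set of eigenvalues

* `mem_of_pow_card` : `x ^ q = x` implies that `x` is in the base field;
* `exists_poly` : the polynomial of a Frobenius-stable set;
* `exists_diag` : the matrix, diagonalised over the algebraic closure;
* `pow_eq_one_iff`, `not_dvd_orderOf` : orders.
-/

set_option autoImplicit false

universe u v w

namespace Cfsg.Agent.H975.CVB

open Matrix Polynomial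

section

variable {F : Type v} [Field F] [Fintype F]

theorem mem_of_pow_card {x : AlgebraicClosure F} (hx : x ^ Fintype.card F = x) :
    ∃ a : F, algebraMap F (AlgebraicClosure F) a = x := by
  classical
  set f := algebraMap F (AlgebraicClosure F) with hf
  set Q : (AlgebraicClosure F)[X] := X ^ Fintype.card F - X with hQ
  have hq : 1 < Fintype.card F := Fintype.one_lt_card
  have hQ0 : Q ≠ 0 := FiniteField.X_pow_card_sub_X_ne_zero (AlgebraicClosure F) hq
  have hdeg : Q.natDegree = Fintype.card F := FiniteField.X_pow_card_sub_X_natDegree_eq (AlgebraicClosure F) hq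
  set T : Finset (AlgebraicClosure F) := Finset.univ.image f with hT
  have hTc : T.card = Fintype.card F := by
    rw [hT, Finset.card_image_of_injective _ f.injective, Finset.card_univ]
  have hsub : T ⊆ Q.roots.toFinset := by
    intro t ht
    obtain ⟨a, -, rfl⟩ := Finset.mem_image.1 ht
    rw [Multiset.mem_toFinset, mem_roots hQ0, IsRoot.def, hQ, eval_sub, eval_pow, eval_X, ← map_pow,
      FiniteField.pow_card, sub_self]
  have hle : Q.roots.toFinset.card ≤ T.card := by
    rw [hTc, ← hdeg]
    exact (Multiset.toFinset_card_le _).trans (card_roots' Q)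
  have heq := Finset.eq_of_subset_of_card_le hsub hle
  have hxr : x ∈ Q.roots.toFinset := by
    rw [Multiset.mem_toFinset, mem_roots hQ0, IsRoot.def, hQ, eval_sub, eval_pow, eval_X, hx, sub_self]
  rw [← heq] at hxr
  obtain ⟨a, -, ha⟩ := Finset.mem_image.1 hxr
  exact ⟨a, ha⟩

/-- **The polynomial of a Frobenius-stable set.** -/
theorem exists_poly (T : Finset (AlgebraicClosure F)) (hT : ∀ t ∈ T, t ^ Fintype.card F ∈ T) :
    ∃ P : F[X], P.Monic ∧ P.map (algebraMap F (AlgebraicClosure F)) = ∏ t ∈ T, (X - C t) := by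
  classical
  obtain ⟨σ, hσ⟩ := Cfsg.Agent.H416.CV.exists_frob F
  set R : (AlgebraicClosure F)[X] := ∏ t ∈ T, (X - C t) with hR
  have himg : T.image σ = T := by
    apply Finset.eq_of_subset_of_card_le
    · intro t ht
      obtain ⟨s, hs, rfl⟩ := Finset.mem_image.1 ht
      rw [hσ]
      exact hT s hs
    · rw [Finset.card_image_of_injective _ σ.injective]
  have hmap : R.map σ = R := by
    rw [hR, Polynomial.map_prod]
    conv_rhs => rw [← himg, Finset.prod_image fun a _ b _ h => σ.injective h]
    refine Finset.prod_congr rfl fun t _ => ?_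
    rw [Polynomial.map_sub, map_X, map_C]
  have hcoeff : ∀ i, ∃ a : F, algebraMap F (AlgebraicClosure F) a = R.coeff i := by
    intro i
    apply mem_of_pow_card
    rw [← hσ, ← coeff_map, hmap]
  have hlift : R ∈ Polynomial.lifts (algebraMap F (AlgebraicClosure F)) := by
    rw [Polynomial.lifts_iff_coeff_lifts]
    intro i
    obtain ⟨a, ha⟩ := hcoeff i
    exact ⟨a, ha⟩
  have hRm : R.Monic := monic_prod_of_monic _ _ fun t _ => monic_X_sub_C t
  obtain ⟨P, hP, -, hPm⟩ := Polynomial.lifts_and_degree_eq_and_monic hlift hRm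
  exact ⟨P, hPm, hP⟩

/-- **The matrix.** -/
theorem exists_diag (T : Finset (AlgebraicClosure F)) (hT0 : (0 : AlgebraicClosure F) ∉ T)
    (hT : ∀ t ∈ T, t ^ Fintype.card F ∈ T) {m : ℕ} (hm : T.card = m) :
    ∃ (A : GL (Fin m) F) (θ : Fin m ≃ T) (P : GL (Fin m) (AlgebraicClosure F)),
      (A : Matrix (Fin m) (Fin m) F).map (algebraMap F (AlgebraicClosure F)) =
        (P : Matrix (Fin m) (Fin m) (AlgebraicClosure F)) * diagonal (fun i => (θ i : AlgebraicClosure F)) *
          ((P⁻¹ : GL (Fin m) (AlgebraicClosure F)) : Matrix (Fin m) (Fin m) (AlgebraicClosure F)) := by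
  classical
  obtain ⟨P, hPm, hP⟩ := exists_poly T hT
  have hdeg : P.natDegree = m := by
    rw [← hPm.natDegree_map (algebraMap F (AlgebraicClosure F)), hP, natDegree_prod_of_monic _ _ fun t _ => monic_X_sub_C t,
      Finset.sum_congr rfl fun t _ => natDegree_X_sub_C t, Finset.sum_const, smul_eq_mul, mul_one, hm]
  obtain ⟨M, hM, -⟩ := Cfsg.Agent.H72.CVA.exists_mat hPm hdeg
  let θ : Fin m ≃ T := (T.equivFinOfCardEq hm).symm
  have hinj : Function.Injective fun i => (θ i : AlgebraicClosure F) := fun i j h => θ.injective (Subtype.ext h)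
  have hroot : ∀ a, (M.map (algebraMap F (AlgebraicClosure F))).charpoly.IsRoot ((fun i => (θ i : AlgebraicClosure F)) a) := by
    intro a
    rw [Matrix.charpoly_map, hM, IsRoot.def, hP, eval_prod]
    apply Finset.prod_eq_zero (θ a).2
    rw [eval_sub, eval_X, eval_C, sub_self]
  obtain ⟨g, hg⟩ := Cfsg.Agent.H934.MF.diag_of_roots (M.map (algebraMap F (AlgebraicClosure F))) hinj hroot
  have hdet : IsUnit M.det := by
    rw [isUnit_iff_ne_zero]
    intro h0
    have h1 : (M.map (algebraMap F (AlgebraicClosure F))).det = 0 := by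
      have := RingHom.map_det (algebraMap F (AlgebraicClosure F)) M
      rw [h0, map_zero] at this
      exact this.symm
    rw [hg, det_mul, det_mul, det_diagonal] at h1
    have h2 : (∏ i, (θ i : AlgebraicClosure F)) ≠ 0 := by
      rw [Finset.prod_ne_zero_iff]
      intro i _ hi
      exact hT0 (hi ▸ (θ i).2)
    have h3 : (g : Matrix (Fin m) (Fin m) (AlgebraicClosure F)).det ≠ 0 :=
      ((Matrix.isUnit_iff_isUnit_det _).1 g.isUnit).ne_zero
    have h4 : ((g⁻¹ : GL (Fin m) (AlgebraicClosure F)) : Matrix (Fin m) (Fin m) (AlgebraicClosure F)).det ≠ 0 :=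
      ((Matrix.isUnit_iff_isUnit_det _).1 (g⁻¹).isUnit).ne_zero
    exact mul_ne_zero (mul_ne_zero h3 h2) h4 h1
  refine ⟨Matrix.GeneralLinearGroup.mk'' M hdet, θ, g, ?_⟩
  exact hg

end

section

variable {F : Type v} [Field F] {m : ℕ} {A : GL (Fin m) F} {θ : Fin m → AlgebraicClosure F}
  {P : GL (Fin m) (AlgebraicClosure F)}

theorem pow_diag (hA : (A : Matrix (Fin m) (Fin m) F).map (algebraMap F (AlgebraicClosure F)) =
        (P : Matrix (Fin m) (Fin m) (AlgebraicClosure F)) * diagonal θ *
          ((P⁻¹ : GL (Fin m) (AlgebraicClosure F)) : Matrix (Fin m) (Fin m) (AlgebraicClosure F))) (k : ℕ) :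
    ((A ^ k : GL (Fin m) F) : Matrix (Fin m) (Fin m) F).map (algebraMap F (AlgebraicClosure F)) =
        (P : Matrix (Fin m) (Fin m) (AlgebraicClosure F)) * diagonal (fun i => θ i ^ k) *
          ((P⁻¹ : GL (Fin m) (AlgebraicClosure F)) : Matrix (Fin m) (Fin m) (AlgebraicClosure F)) := by
  have hPP : (P : Matrix (Fin m) (Fin m) (AlgebraicClosure F)) *
      ((P⁻¹ : GL (Fin m) (AlgebraicClosure F)) : Matrix (Fin m) (Fin m) (AlgebraicClosure F)) = 1 := by
    rw [← Units.val_mul, mul_inv_cancel, Units.val_one]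
  have hPP' : ((P⁻¹ : GL (Fin m) (AlgebraicClosure F)) : Matrix (Fin m) (Fin m) (AlgebraicClosure F)) *
      (P : Matrix (Fin m) (Fin m) (AlgebraicClosure F)) = 1 := by
    rw [← Units.val_mul, inv_mul_cancel, Units.val_one]
  induction k with
  | zero =>
    simp only [pow_zero, Units.val_one]
    rw [Matrix.map_one _ (map_zero _) (map_one _), show (diagonal fun _ : Fin m => (1 : AlgebraicClosure F)) = 1 from diagonal_one,
      mul_one, hPP]
  | succ k ih =>
    rw [pow_succ, Units.val_mul, Matrix.map_mul, ih, hA]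
    calc _ = (P : Matrix (Fin m) (Fin m) (AlgebraicClosure F)) * diagonal (fun i => θ i ^ k) *
          (((P⁻¹ : GL (Fin m) (AlgebraicClosure F)) : Matrix (Fin m) (Fin m) (AlgebraicClosure F)) *
          (P : Matrix (Fin m) (Fin m) (AlgebraicClosure F))) * diagonal θ *
          ((P⁻¹ : GL (Fin m) (AlgebraicClosure F)) : Matrix (Fin m) (Fin m) (AlgebraicClosure F)) := by
            simp only [mul_assoc]
      _ = _ := by
        rw [hPP', mul_one, mul_assoc (P : Matrix (Fin m) (Fin m) (AlgebraicClosure F)), diagonal_mul_diagonal]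
        simp only [pow_succ]

theorem pow_eq_one_iff_of_diag (hA : (A : Matrix (Fin m) (Fin m) F).map (algebraMap F (AlgebraicClosure F)) =
        (P : Matrix (Fin m) (Fin m) (AlgebraicClosure F)) * diagonal θ *
          ((P⁻¹ : GL (Fin m) (AlgebraicClosure F)) : Matrix (Fin m) (Fin m) (AlgebraicClosure F))) (k : ℕ) :
    A ^ k = 1 ↔ ∀ i, θ i ^ k = 1 := by
  have hPP : (P : Matrix (Fin m) (Fin m) (AlgebraicClosure F)) *
      ((P⁻¹ : GL (Fin m) (AlgebraicClosure F)) : Matrix (Fin m) (Fin m) (AlgebraicClosure F)) = 1 := by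
    rw [← Units.val_mul, mul_inv_cancel, Units.val_one]
  have hPP' : ((P⁻¹ : GL (Fin m) (AlgebraicClosure F)) : Matrix (Fin m) (Fin m) (AlgebraicClosure F)) *
      (P : Matrix (Fin m) (Fin m) (AlgebraicClosure F)) = 1 := by
    rw [← Units.val_mul, inv_mul_cancel, Units.val_one]
  have h := pow_diag hA k
  constructor
  · intro h1 i
    rw [h1, Units.val_one, Matrix.map_one _ (map_zero _) (map_one _)] at h
    have h2 : diagonal (fun i => θ i ^ k) = (1 : Matrix (Fin m) (Fin m) (AlgebraicClosure F)) := by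
      calc _ = (((P⁻¹ : GL (Fin m) (AlgebraicClosure F)) : Matrix (Fin m) (Fin m) (AlgebraicClosure F)) *
          (P : Matrix (Fin m) (Fin m) (AlgebraicClosure F))) * diagonal (fun i => θ i ^ k) *
          (((P⁻¹ : GL (Fin m) (AlgebraicClosure F)) : Matrix (Fin m) (Fin m) (AlgebraicClosure F)) *
          (P : Matrix (Fin m) (Fin m) (AlgebraicClosure F))) := by rw [hPP', one_mul, mul_one]
        _ = ((P⁻¹ : GL (Fin m) (AlgebraicClosure F)) : Matrix (Fin m) (Fin m) (AlgebraicClosure F)) *
          ((P : Matrix (Fin m) (Fin m) (AlgebraicClosure F)) * diagonal (fun i => θ i ^ k) *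
          ((P⁻¹ : GL (Fin m) (AlgebraicClosure F)) : Matrix (Fin m) (Fin m) (AlgebraicClosure F))) *
          (P : Matrix (Fin m) (Fin m) (AlgebraicClosure F)) := by simp only [mul_assoc]
        _ = _ := by rw [← h, mul_one, hPP']
    have h3 := congrFun (congrFun h2 i) i
    rwa [diagonal_apply_eq, one_apply_eq] at h3
  · intro h1
    have h2 : (diagonal fun i => θ i ^ k) = (1 : Matrix (Fin m) (Fin m) (AlgebraicClosure F)) := by
      rw [show (fun i => θ i ^ k) = fun _ => (1 : AlgebraicClosure F) from funext h1]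
      exact diagonal_one
    rw [h2, mul_one, hPP] at h
    apply Units.ext
    rw [Units.val_one]
    ext i j
    have h3 := congrFun (congrFun h i) j
    rw [Matrix.map_apply] at h3
    apply (algebraMap F (AlgebraicClosure F)).injective
    rw [h3, one_apply, one_apply]
    split_ifs
    · rw [map_one]
    · rw [map_zero]

/-- a diagonalisable matrix has order prime to the characteristic -/
theorem not_dvd_orderOf_of_diag [Finite F] (p : ℕ) [Fact p.Prime] [CharP F p]
    (hA : (A : Matrix (Fin m) (Fin m) F).map (algebraMap F (AlgebraicClosure F)) =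
        (P : Matrix (Fin m) (Fin m) (AlgebraicClosure F)) * diagonal θ *
          ((P⁻¹ : GL (Fin m) (AlgebraicClosure F)) : Matrix (Fin m) (Fin m) (AlgebraicClosure F))) : ¬ p ∣ orderOf A := by
  rintro ⟨k, hk⟩
  have hp : p.Prime := Fact.out
  have : CharP (AlgebraicClosure F) p := charP_of_injective_algebraMap (algebraMap F (AlgebraicClosure F)).injective p
  have h0 : 0 < orderOf A := orderOf_pos A
  have hk0 : 0 < k := by
    rcases Nat.eq_zero_or_pos k with h | h
    · rw [h, mul_zero] at hk; omega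
    · exact h
  have h1 : ∀ i, θ i ^ (p * k) = 1 := (pow_eq_one_iff_of_diag hA _).1 (by rw [← hk, pow_orderOf_eq_one])
  have h2 : A ^ k = 1 := by
    rw [pow_eq_one_iff_of_diag hA]
    intro i
    apply frobenius_inj (AlgebraicClosure F) p
    rw [frobenius_def, frobenius_def, one_pow, ← pow_mul, mul_comm]
    exact h1 i
  have h3 := Nat.le_of_dvd hk0 (orderOf_dvd_of_pow_eq_one h2)
  rw [hk] at h3
  have := hp.two_le
  nlinarith

end

end Cfsg.Agent.H975.CVB
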