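import Cfsg.Agent.H975.CVB.Row
import Cfsg.Agent.H362.CV.Mm1
import Cfsg.Agent.H45.CVN.Even
import Cfsg.Agent.H992.BB.Omega

/-!
# S3442: the row `odd_own`

* `exRow_of_MM` : the element of `GL_m(F)` (helper362, helper45) gives `ExRow` (with `cen_of_big`, `no_odd` of helper416);
* `odd_own` : `Hit p (POmega F (quadFormOdd m F))`, `p ≠ 2`, `m ≥ 3`.
-/

set_option autoImplicit false

universe u

namespace Cfsg.Agent.H975.CVB

open Matrix Cfsg Cfsg.Agent.H373.CV Cfsg.Agent.H416.CV Cfsg.Agent.H362.CV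

theorem odd_card (F : Type) [Field F] [Fintype F] (p : ℕ) [hp : Fact p.Prime] [CharP F p] (hp2 : p ≠ 2) :
    Odd (Fintype.card F) := by
  obtain ⟨n, -, hn⟩ := FiniteField.card F p
  rw [hn]
  exact (hp.out.odd_of_ne_two hp2).pow

theorem exRow_of_MM {F : Type} [Field F] [Fintype F] {p : ℕ} [hp : Fact p.Prime] [CharP F p] {m : ℕ} (hp2 : p ≠ 2)
    (h : MM F p m) : ExRow F p m := by
  obtain ⟨N, M, hNM, hpM, hD, hbig⟩ := h
  have h2 : (2 : F) ≠ 0 := by
    intro h
    have h1 : ((2 : ℕ) : F) = 0 := by exact_mod_cast h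
    exact hp2 ((Nat.prime_dvd_prime_iff_eq hp.out Nat.prime_two).1 ((CharP.cast_eq_zero_iff F p 2).1 h1))
  refine ⟨N, M, hNM, hpM, hD, fun g hg => ?_⟩
  obtain ⟨B, hB, -, hBg⟩ := exists_gram_odd (m := m) h2
  rw [← Subgroup.orderOf_coe g] at hg ⊢
  have hc : Fintype.card (OIx m) = 2 * m + 1 := by
    rw [Fintype.card_sum, Fintype.card_sum, Fintype.card_fin, Fintype.card_unit]
    omega
  have hcen := cen_of_big (p := p) (odd_card F p hp2) hB (hBg g) (m := m) (by rw [hc]; omega) (hbig.mono hg)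
  exact no_odd (p := p) hB (hBg g) (m := m) (by rw [hc]) hcen

/-- the row from the element of `GL_m` -/
theorem hit_of_MM (F : Type) [Field F] [Fintype F] (p : ℕ) [Fact p.Prime] [CharP F p] (m : ℕ) (hp2 : p ≠ 2) (hm : 3 ≤ m)
    (h : MM F p m) : Hit.{u, 0} p (POmega F (quadFormOdd m F)) :=
  hit_of F p m hp2 hm (Cfsg.Agent.H992.BB.fixRow F p m hp2 (by omega)) (exRow_of_MM hp2 h)

theorem three_le_card (F : Type) [Field F] [Fintype F] (p : ℕ) [hp : Fact p.Prime] [CharP F p] (hp2 : p ≠ 2) :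
    3 ≤ Fintype.card F := by
  have h1 : 1 < Fintype.card F := Fintype.one_lt_card
  obtain ⟨k, hk⟩ := odd_card F p hp2
  omega

/-- the element for all `m` from the cases `m = 4`, `m = 6` -/
theorem mm_all (F : Type) [Field F] [Fintype F] (p : ℕ) [hp : Fact p.Prime] [CharP F p] (m : ℕ) (hp2 : p ≠ 2) (hm : 3 ≤ m)
    (h4 : MM F p 4) (h6 : MM F p 6) : MM F p m := by
  rcases Nat.even_or_odd m with he | ho
  · by_cases h8 : 8 ≤ m
    · exact Cfsg.Agent.H45.CVN.mm_ge_eight hp2 h8 he (three_le_card F p hp2)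
    · obtain ⟨k, hk⟩ := he
      have hk' : k = 2 ∨ k = 3 := by omega
      rcases hk' with rfl | rfl
      · rw [hk]; exact h4
      · rw [hk]; exact h6
  · exact mm_odd hm ho

end Cfsg.Agent.H975.CVB
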